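import Mathlib

set_option autoImplicit false

/-! S3117 farm: piece B (central_of_few). -/

namespace Cfsg.Agent.Lib.Helper34.TI

section

variable {E : Type*} [Group E] (h4 : ∀ x : E, x ^ 4 = 1)
    (hfour : ∀ a b c d : E, a ^ 2 = 1 → b ^ 2 = 1 → c ^ 2 = 1 → d ^ 2 = 1 → a ≠ 1 → b ≠ 1 → c ≠ 1 → d ≠ 1 →
      a ≠ b → a ≠ c → a ≠ d → b ≠ c → b ≠ d → c ≠ d → False)

include h4 hfour in
lemma invol_comm (a g : E) (ha : a * a = 1) (hg : g * g = 1) : a * g = g * a := by
  by_contra hne
  have ha1 : a ≠ 1 := by rintro rfl; simp at hne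
  have hg1 : g ≠ 1 := by rintro rfl; simp at hne
  have haa : ∀ x, a * (a * x) = x := fun x => by rw [← mul_assoc, ha, one_mul]
  have hgg : ∀ x, g * (g * x) = x := fun x => by rw [← mul_assoc, hg, one_mul]
  have hu : a * (g * (a * g)) ≠ 1 := by
    intro h
    apply hne
    have h2 : g * (a * (a * (g * (a * g)))) = g * (a * 1) := by rw [h]
    rw [haa, hgg, mul_one] at h2
    exact h2
  apply hfour a g (a * g * a) ((a * g) ^ 2)
  · rw [sq]; exact ha
  · rw [sq]; exact hg
  · simp only [sq, mul_assoc, haa, hgg, ha]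
  · rw [← pow_mul]; exact h4 _
  · exact ha1
  · exact hg1
  · intro h
    apply hg1
    have h2 : a * (a * g * a) * a = a * 1 * a := by rw [h]
    simp only [mul_assoc, haa, ha, mul_one, one_mul] at h2
    exact h2
  · simp only [sq, mul_assoc]; exact hu
  · rintro rfl
    exact hne rfl
  · intro h
    -- a = a g a → g a = 1
    have h2 : a * a = a * (a * g * a) := by rw [← h]
    simp only [mul_assoc, haa, ha] at h2
    -- 1 = g * a
    apply hne
    have h3 : g = a := by
      have : g * (g * a) = g * 1 := by rw [← h2]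
      rw [hgg, mul_one] at this
      exact this.symm
    rw [h3]
  · intro h
    -- a = (a g)^2 → g a g = 1 → a = 1
    have h2 : a * a = a * (a * g) ^ 2 := by rw [← h]
    simp only [sq, mul_assoc, haa, ha] at h2
    apply ha1
    have : g * (g * (a * g)) * g = g * 1 * g := by rw [← h2]
    simp only [mul_assoc, hgg, hg, mul_one, one_mul] at this
    exact this
  · intro h
    -- g = a g a → (a g)(a g) = 1
    apply hu
    have : a * (g * (a * g)) = (a * g * a) * g := by simp only [mul_assoc]
    rw [this, ← h, hg]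
  · intro h
    -- g = (a g)^2 → a g a = 1 → g = 1
    have h2 : g * g = (a * g) ^ 2 * g := by rw [← h]
    simp only [sq, mul_assoc, hg, mul_one] at h2
    apply hg1
    have : a * (a * (g * a)) * a = a * 1 * a := by rw [← h2]
    simp only [mul_assoc, haa, ha, mul_one, one_mul] at this
    exact this
  · intro h
    -- a g a = a g a g → g = 1
    apply hg1
    have h2 : a * g * a = a * g * a * g := by
      have e : (a * g) ^ 2 = a * g * a * g := by simp only [sq, mul_assoc]
      rw [← e]; exact h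
    exact (mul_eq_left.mp h2.symm)

include h4 hfour in
theorem central_of_few' : ∀ x : E, x ^ 2 = 1 → ∀ y : E, x * y = y * x := by
  intro a ha2 g
  have ha : a * a = 1 := by rw [← sq]; exact ha2
  by_contra hne
  have ha1 : a ≠ 1 := by rintro rfl; simp at hne
  have hgg1 : g * g ≠ 1 := fun h => hne (invol_comm h4 hfour a g ha h)
  have ht : (g * g) * (g * g) = 1 := by
    have := h4 g
    rw [show (4 : ℕ) = 2 + 2 from rfl, pow_add, sq] at this
    exact this
  have ha' : (g⁻¹ * a * g) * (g⁻¹ * a * g) = 1 := by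
    have : (g⁻¹ * a * g) * (g⁻¹ * a * g) = g⁻¹ * (a * a) * g := by group
    rw [this, ha]; group
  have hne' : g⁻¹ * a * g ≠ a := by
    intro h
    apply hne
    have : g * (g⁻¹ * a * g) = g * a := by rw [h]
    rw [← this]; group
  have hcomm := invol_comm h4 hfour a (g⁻¹ * a * g) ha ha'
  have hw : (a * (g⁻¹ * a * g)) * (a * (g⁻¹ * a * g)) = 1 := by
    rw [mul_assoc, ← mul_assoc (g⁻¹ * a * g) a, ← hcomm, mul_assoc a (g⁻¹ * a * g), ha', mul_one, ha]
  have hw1 : a * (g⁻¹ * a * g) ≠ 1 := by
    intro h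
    apply hne'
    have : a * (a * (g⁻¹ * a * g)) = a * 1 := by rw [h]
    rw [← mul_assoc, ha, one_mul, mul_one] at this
    exact this
  have ha'1 : g⁻¹ * a * g ≠ 1 := by
    intro h
    apply ha1
    have : g * (g⁻¹ * a * g) * g⁻¹ = g * 1 * g⁻¹ := by rw [h]
    have e : g * (g⁻¹ * a * g) * g⁻¹ = a := by group
    rw [e] at this
    rw [this]; group
  have hcases : g * g = a ∨ g * g = g⁻¹ * a * g ∨ g * g = a * (g⁻¹ * a * g) := by
    by_contra hcon
    push Not at hcon
    obtain ⟨c1, c2, c3⟩ := hcon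
    exact hfour a (g⁻¹ * a * g) (a * (g⁻¹ * a * g)) (g * g) ha2 (by rw [sq]; exact ha')
      (by rw [sq]; exact hw) (by rw [sq]; exact ht) ha1 ha'1 hw1 hgg1 (fun h => hne' h.symm)
      (fun h => ha'1 (mul_eq_left.mp h.symm)) (fun h => c1 h.symm)
      (fun h => ha1 (mul_eq_right.mp h.symm)) (fun h => c2 h.symm) (fun h => c3 h.symm)
  rcases hcases with h | h | h
  · apply hne
    rw [← h]; group
  · apply hne
    have : a = g * g := by
      have e : a = g * (g⁻¹ * a * g) * g⁻¹ := by group
      rw [e, ← h]; group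
    rw [this]; group
  · have hga : (g * a) * (g * a) = 1 := by
      have e : (g * a) * (g * a) = (g * g) * (g⁻¹ * a * g) * a := by group
      rw [e, h, mul_assoc a, ha', mul_one, ha]
    have h2 := invol_comm h4 hfour (g * a) a hga ha
    apply hne
    rw [mul_assoc, ha, mul_one] at h2
    -- g = a * (g * a)
    have : g * a = a * (g * a) * a := by rw [← h2]
    rw [mul_assoc, mul_assoc, ha, mul_one] at this
    exact this.symm

end

theorem central_of_few {E : Type*} [Group E] (h4 : ∀ x : E, x ^ 4 = 1)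
    (hfour : ∀ a b c d : E, a ^ 2 = 1 → b ^ 2 = 1 → c ^ 2 = 1 → d ^ 2 = 1 → a ≠ 1 → b ≠ 1 → c ≠ 1 → d ≠ 1 →
      a ≠ b → a ≠ c → a ≠ d → b ≠ c → b ≠ d → c ≠ d → False) :
    ∀ x : E, x ^ 2 = 1 → ∀ y : E, x * y = y * x := central_of_few' h4 hfour

end Cfsg.Agent.Lib.Helper34.TI
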