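import Mathlib

set_option autoImplicit false

/-! S3117 (the automorphism group of a 2-group with exactly three involutions is solvable):
base definitions of the farm. -/

namespace Cfsg.Agent.Lib.Helper34.TI

/-- at most three involutions -/
def Few (E : Type*) [Group E] : Prop := Nat.card {x : E // orderOf x = 2} ≤ 3

/-- `1, v₁, v₂, v₃` are exactly the solutions of `x ^ 2 = 1`. -/
structure V4 (E : Type*) [Group E] (v₁ v₂ v₃ : E) : Prop where
  ne1 : v₁ ≠ 1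
  ne2 : v₂ ≠ 1
  ne3 : v₃ ≠ 1
  ne12 : v₁ ≠ v₂
  ne13 : v₁ ≠ v₃
  ne23 : v₂ ≠ v₃
  sq1 : v₁ ^ 2 = 1
  sq2 : v₂ ^ 2 = 1
  sq3 : v₃ ^ 2 = 1
  all : ∀ x : E, x ^ 2 = 1 → x = 1 ∨ x = v₁ ∨ x = v₂ ∨ x = v₃

/-- automorphisms fixing every solution of `x ^ 2 = 1`. -/
def fixK (E : Type*) [Group E] : Subgroup (MulAut E) where
  carrier := {φ | ∀ v : E, v ^ 2 = 1 → φ v = v}
  one_mem' := fun _ _ => rfl
  mul_mem' := fun {a b} ha hb v hv => by rw [MulAut.mul_apply, hb v hv, ha v hv]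
  inv_mem' := fun {a} ha v hv => by
    rw [MulAut.inv_apply, MulEquiv.symm_apply_eq, ha v hv]

/-- the configuration of the Sylow 2-subgroup of `U₃(4)`. -/
def Big (E : Type*) [Group E] : Prop :=
  Nat.card E = 64 ∧ ∀ v : E, v ^ 2 = 1 → v ≠ 1 → Nat.card {x : E // x ^ 2 = v} = 20

end Cfsg.Agent.Lib.Helper34.TI
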