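import Mathlib
import Cfsg.Agent.Lib.Helper34.TI.Defs
import Cfsg.Agent.S0144

set_option autoImplicit false

/-! S3117 farm: pieces M (card_dvd_of_stable), S (card_split, card_sq_one), P (solvable_of_fixK). -/

namespace Cfsg.Agent.Lib.Helper34.TI

theorem card_dvd_of_stable {E : Type*} [Group E] [Finite E] (V : Subgroup E) (P : E → Prop)
    (hP : ∀ x, P x → ∀ v ∈ V, P (x * v)) : Nat.card V ∣ Nat.card {x : E // P x} := by
  have hiff : ∀ x, P x ↔ P ((QuotientGroup.mk x : E ⧸ V).out) := by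
    intro x
    obtain ⟨h, hh⟩ := QuotientGroup.mk_out_eq_mul V x
    rw [hh]
    constructor
    · intro hx; exact hP x hx h h.2
    · intro hx
      have := hP _ hx (h : E)⁻¹ (V.inv_mem h.2)
      simpa using this
  have e : {x : E // P x} ≃ {q : E ⧸ V // P q.out} × V :=
    { toFun := fun x => (⟨QuotientGroup.mk x.1, (hiff x.1).mp x.2⟩,
        ⟨(QuotientGroup.mk x.1 : E ⧸ V).out⁻¹ * x.1, by
          rw [← QuotientGroup.eq]; exact QuotientGroup.out_eq' _⟩)
      invFun := fun y => ⟨y.1.1.out * y.2.1, hP _ y.1.2 _ y.2.2⟩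
      left_inv := fun x => Subtype.ext (by simp)
      right_inv := fun y => by
        have h : (QuotientGroup.mk (y.1.1.out * y.2.1) : E ⧸ V) = y.1.1 := by
          rw [QuotientGroup.mk_mul_of_mem _ y.2.2, QuotientGroup.out_eq']
        apply Prod.ext
        · exact Subtype.ext h
        · apply Subtype.ext
          simp only
          rw [h]
          simp }
  rw [Nat.card_congr e, Nat.card_prod]
  exact dvd_mul_left _ _

lemma split2 {E : Type*} [Finite E] (P Q : E → Prop) :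
    Nat.card {x : E // P x} = Nat.card {x : E // P x ∧ Q x} + Nat.card {x : E // P x ∧ ¬ Q x} := by
  classical
  haveI := Fintype.ofFinite E
  simp only [Nat.card_eq_fintype_card, Fintype.card_subtype]
  rw [← Finset.filter_filter, ← Finset.filter_filter]
  exact (Finset.card_filter_add_card_filter_not _).symm

theorem card_split {E : Type*} [Group E] [Finite E] (h4 : ∀ x : E, x ^ 4 = 1) {v₁ v₂ v₃ : E}
    (hV : V4 E v₁ v₂ v₃) (P : E → Prop) :
    Nat.card {x : E // P x} = Nat.card {x : E // P x ∧ x ^ 2 = 1} + Nat.card {x : E // P x ∧ x ^ 2 = v₁} +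
      Nat.card {x : E // P x ∧ x ^ 2 = v₂} + Nat.card {x : E // P x ∧ x ^ 2 = v₃} := by
  have hsq : ∀ x : E, x ^ 2 = 1 ∨ x ^ 2 = v₁ ∨ x ^ 2 = v₂ ∨ x ^ 2 = v₃ := fun x =>
    hV.all (x ^ 2) (by rw [← pow_mul]; exact h4 x)
  rw [split2 P (fun x => x ^ 2 = 1), split2 (fun x => P x ∧ ¬ x ^ 2 = 1) (fun x => x ^ 2 = v₁),
    split2 (fun x => (P x ∧ ¬ x ^ 2 = 1) ∧ ¬ x ^ 2 = v₁) (fun x => x ^ 2 = v₂)]
  have e1 : Nat.card {x : E // (P x ∧ ¬ x ^ 2 = 1) ∧ x ^ 2 = v₁} = Nat.card {x : E // P x ∧ x ^ 2 = v₁} :=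
    Nat.card_congr (Equiv.subtypeEquivRight (fun x => ⟨fun h => ⟨h.1.1, h.2⟩,
      fun h => ⟨⟨h.1, fun h1 => hV.ne1 (h.2.symm.trans h1)⟩, h.2⟩⟩))
  have e2 : Nat.card {x : E // ((P x ∧ ¬ x ^ 2 = 1) ∧ ¬ x ^ 2 = v₁) ∧ x ^ 2 = v₂} =
      Nat.card {x : E // P x ∧ x ^ 2 = v₂} :=
    Nat.card_congr (Equiv.subtypeEquivRight (fun x => ⟨fun h => ⟨h.1.1.1, h.2⟩,
      fun h => ⟨⟨⟨h.1, fun h1 => hV.ne2 (h.2.symm.trans h1)⟩,
        fun h1 => hV.ne12 (h1.symm.trans h.2)⟩, h.2⟩⟩))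
  have e3 : Nat.card {x : E // ((P x ∧ ¬ x ^ 2 = 1) ∧ ¬ x ^ 2 = v₁) ∧ ¬ x ^ 2 = v₂} =
      Nat.card {x : E // P x ∧ x ^ 2 = v₃} :=
    Nat.card_congr (Equiv.subtypeEquivRight (fun x => ⟨fun h => ⟨h.1.1.1, by
        rcases hsq x with h1 | h1 | h1 | h1
        · exact absurd h1 h.1.1.2
        · exact absurd h1 h.1.2
        · exact absurd h1 h.2
        · exact h1⟩,
      fun h => ⟨⟨⟨h.1, fun h1 => hV.ne3 (h.2.symm.trans h1)⟩,
        fun h1 => hV.ne13 (h1.symm.trans h.2)⟩, fun h1 => hV.ne23 (h1.symm.trans h.2)⟩⟩))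
  rw [e1, e2, e3]
  ring

theorem card_sq_one {E : Type*} [Group E] [Finite E] {v₁ v₂ v₃ : E}
    (hV : V4 E v₁ v₂ v₃) (P : E → Prop) (hP : ∀ x : E, x ^ 2 = 1 → P x) :
    Nat.card {x : E // P x ∧ x ^ 2 = 1} = 4 := by
  let f : Fin 4 → {x : E // P x ∧ x ^ 2 = 1} :=
    ![⟨1, hP 1 (one_pow 2), one_pow 2⟩, ⟨v₁, hP _ hV.sq1, hV.sq1⟩, ⟨v₂, hP _ hV.sq2, hV.sq2⟩,
      ⟨v₃, hP _ hV.sq3, hV.sq3⟩]
  have hf : Function.Bijective f := by
    constructor
    · intro i j hij
      have hij' : (f i : E) = (f j : E) := congrArg Subtype.val hij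
      have := hV.ne1; have := hV.ne2; have := hV.ne3; have := hV.ne12; have := hV.ne13
      have := hV.ne23
      have := hV.ne1.symm; have := hV.ne2.symm; have := hV.ne3.symm; have := hV.ne12.symm
      have := hV.ne13.symm; have := hV.ne23.symm
      fin_cases i <;> fin_cases j <;> simp_all [f]
    · rintro ⟨x, hx1, hx2⟩
      rcases hV.all x hx2 with rfl | rfl | rfl | rfl
      · exact ⟨0, rfl⟩
      · exact ⟨1, rfl⟩
      · exact ⟨2, rfl⟩
      · exact ⟨3, rfl⟩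
  rw [← Nat.card_congr (Equiv.ofBijective f hf)]
  simp

/-- the action of automorphisms on the solutions of `x ^ 2 = 1`. -/
def permHom (E : Type*) [Group E] : MulAut E →* Equiv.Perm {x : E // x ^ 2 = 1} where
  toFun φ :=
    { toFun := fun x => ⟨φ x.1, by rw [← map_pow, x.2, map_one]⟩
      invFun := fun x => ⟨φ.symm x.1, by rw [← map_pow, x.2, map_one]⟩
      left_inv := fun x => Subtype.ext (φ.symm_apply_apply _)
      right_inv := fun x => Subtype.ext (φ.apply_symm_apply _) }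
  map_one' := rfl
  map_mul' _ _ := rfl

lemma solvable_perm {α : Type*} [Finite α] (h : Nat.card α ≤ 4) : Group.IsSolvable (Equiv.Perm α) := by
  classical
  haveI := Fintype.ofFinite α
  have hc : Nat.card (Equiv.Perm α) = (Nat.card α).factorial := by
    rw [Nat.card_eq_fintype_card, Nat.card_eq_fintype_card, Fintype.card_perm]
  generalize Nat.card α = n at h hc
  interval_cases n
  · exact Cfsg.Agent.S0144.result 2 3 0 0 Nat.prime_two Nat.prime_three (by rw [hc]; rfl)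
  · exact Cfsg.Agent.S0144.result 2 3 0 0 Nat.prime_two Nat.prime_three (by rw [hc]; rfl)
  · exact Cfsg.Agent.S0144.result 2 3 1 0 Nat.prime_two Nat.prime_three (by rw [hc]; rfl)
  · exact Cfsg.Agent.S0144.result 2 3 1 1 Nat.prime_two Nat.prime_three (by rw [hc]; rfl)
  · exact Cfsg.Agent.S0144.result 2 3 3 1 Nat.prime_two Nat.prime_three (by rw [hc]; rfl)

theorem solvable_of_fixK {E : Type*} [Group E] [Finite E] (h : Nat.card {x : E // x ^ 2 = 1} ≤ 4)
    (hK : Group.IsSolvable (fixK E)) : Group.IsSolvable (MulAut E) := by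
  haveI := solvable_perm h
  refine solvable_of_ker_le_range (fixK E).subtype (permHom E) ?_
  intro φ hφ
  rw [MonoidHom.mem_ker] at hφ
  rw [Subgroup.range_subtype]
  intro v hv
  have := congrArg (fun ψ : Equiv.Perm {x : E // x ^ 2 = 1} => ((ψ ⟨v, hv⟩ : {x : E // x ^ 2 = 1}) : E)) hφ
  exact this

end Cfsg.Agent.Lib.Helper34.TI
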