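import Mathlib

set_option autoImplicit false

/-! S3117 farm: piece F (gauss_sq): the square of a `±1` Gauss sum on a finite group. -/

namespace Cfsg.Agent.Lib.Helper34.TI

theorem gauss_sq {E : Type*} [Group E] [Fintype E] (f : E → ℤ) (β : E → E → ℤ)
    (hf : ∀ x, f x = 1 ∨ f x = -1) (hβ : ∀ z x, β z x = 1 ∨ β z x = -1)
    (hmul : ∀ x z, f (x * z) = f x * f z * β z x)
    (hβr : ∀ z x x', β z (x * x') = β z x * β z x')
    (hβl : ∀ z z' x, β (z * z') x = β z x * β z' x) :
    ∃ R : Subgroup E, (∀ z, z ∈ R ↔ ∀ x, β z x = 1) ∧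
      ((∑ x, f x) ^ 2 = 0 ∨ (∑ x, f x) ^ 2 = (Nat.card E : ℤ) * (Nat.card R : ℤ)) := by
  classical
  have hβ1 : ∀ x, β 1 x = 1 := by
    intro x
    have h := hβl 1 1 x
    rw [mul_one] at h
    rcases hβ 1 x with h1 | h1
    · exact h1
    · rw [h1] at h; norm_num at h
  let R : Subgroup E :=
    { carrier := {z | ∀ x, β z x = 1}
      one_mem' := hβ1
      mul_mem' := fun {a b} ha hb x => by rw [hβl, ha x, hb x, mul_one]
      inv_mem' := fun {a} ha x => by
        have h := hβl a a⁻¹ x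
        rw [mul_inv_cancel, hβ1, ha x, one_mul] at h
        exact h.symm }
  have hR : ∀ z, z ∈ R ↔ ∀ x, β z x = 1 := fun z => Iff.rfl
  refine ⟨R, hR, ?_⟩
  have hff : ∀ x, f x * f x = 1 := by
    intro x
    rcases hf x with h | h <;> rw [h] <;> norm_num
  -- inner sums
  have hT : ∀ z, ∑ x, β z x = if z ∈ R then (Nat.card E : ℤ) else 0 := by
    intro z
    split_ifs with hz
    · rw [Finset.sum_congr rfl (fun x _ => (hR z).mp hz x)]
      simp [Nat.card_eq_fintype_card]
    · rw [hR] at hz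
      push Not at hz
      obtain ⟨x₀, hx₀⟩ := hz
      have hx₀' : β z x₀ = -1 := (hβ z x₀).resolve_left hx₀
      have h1 : ∑ x, β z x = ∑ x, β z (x₀ * x) := (Equiv.sum_comp (Equiv.mulLeft x₀) (β z)).symm
      have h2 : ∑ x, β z (x₀ * x) = - ∑ x, β z x := by
        rw [← Finset.sum_neg_distrib]
        exact Finset.sum_congr rfl (fun x _ => by rw [hβr, hx₀']; ring)
      linarith
  have hS : (∑ x, f x) ^ 2 = (Nat.card E : ℤ) * ∑ z, (if z ∈ R then f z else 0) := by
    rw [sq, Finset.sum_mul_sum]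
    have h1 : ∀ x, ∑ y, f x * f y = ∑ z, f z * β z x := by
      intro x
      rw [← Equiv.sum_comp (Equiv.mulLeft x) (fun y => f x * f y)]
      apply Finset.sum_congr rfl
      intro z _
      simp only [Equiv.coe_mulLeft]
      rw [hmul, ← mul_assoc, ← mul_assoc, hff, one_mul]
    rw [Finset.sum_congr rfl (fun x _ => h1 x), Finset.sum_comm, Finset.mul_sum]
    apply Finset.sum_congr rfl
    intro z _
    rw [← Finset.mul_sum, hT]
    split_ifs <;> ring
  rw [hS]
  by_cases hall : ∀ z ∈ R, f z = 1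
  · right
    congr 1
    have : ∑ z, (if z ∈ R then f z else 0) = ∑ z, (if z ∈ R then (1 : ℤ) else 0) := by
      apply Finset.sum_congr rfl
      intro z _
      split_ifs with hz
      · exact hall z hz
      · rfl
    rw [this, Finset.sum_boole, Nat.card_eq_fintype_card, Fintype.card_subtype]
  · left
    push Not at hall
    obtain ⟨z₀, hz₀, hfz₀⟩ := hall
    have hfz₀' : f z₀ = -1 := (hf z₀).resolve_left hfz₀
    have h1 : ∑ z, (if z ∈ R then f z else 0) = ∑ z, (if z₀ * z ∈ R then f (z₀ * z) else 0) :=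
      (Equiv.sum_comp (Equiv.mulLeft z₀) (fun z => if z ∈ R then f z else 0)).symm
    have h2 : ∑ z, (if z₀ * z ∈ R then f (z₀ * z) else 0) = - ∑ z, (if z ∈ R then f z else 0) := by
      rw [← Finset.sum_neg_distrib]
      apply Finset.sum_congr rfl
      intro z _
      have hiff : z₀ * z ∈ R ↔ z ∈ R := R.mul_mem_cancel_left hz₀
      by_cases hz : z ∈ R
      · rw [if_pos (hiff.mpr hz), if_pos hz, hmul, hfz₀', (hR z).mp hz z₀]
        ring
      · rw [if_neg (fun h => hz (hiff.mp h)), if_neg hz]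
        simp
    have : ∑ z, (if z ∈ R then f z else 0) = 0 := by linarith
    rw [this, mul_zero]

end Cfsg.Agent.Lib.Helper34.TI
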