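import Mathlib

set_option autoImplicit false

/-! S3117 farm: piece G (gauss_apply): the Gauss sum of the squaring map. -/

namespace Cfsg.Agent.Lib.Helper34.TI

section

variable {E : Type*} [Group E]

/-- commutator -/
def com (x z : E) : E := x * z * x⁻¹ * z⁻¹

variable (h4 : ∀ x : E, x ^ 4 = 1) (hc : ∀ x : E, x ^ 2 = 1 → ∀ y : E, x * y = y * x)

include hc in
lemma sq_mul_of (u w : E) (hu : u ^ 2 = 1) (hw : w ^ 2 = 1) : (u * w) ^ 2 = 1 := by
  rw [sq, mul_assoc, ← mul_assoc w u w, ← hc u hu w, mul_assoc, ← sq w, hw, mul_one, ← sq, hu]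

include h4 in
lemma sq_sq (x : E) : (x ^ 2) ^ 2 = 1 := by rw [← pow_mul]; exact h4 x

lemma sq_inv_of (u : E) (hu : u ^ 2 = 1) : (u⁻¹) ^ 2 = 1 := by rw [inv_pow, hu, inv_one]

include h4 hc in
lemma com_eq (x z : E) : com x z = (x * z) ^ 2 * (x ^ 2)⁻¹ * (z ^ 2)⁻¹ := by
  have h := hc ((x ^ 2)⁻¹) (sq_inv_of _ (sq_sq h4 x)) z
  have e : (x * z) ^ 2 * (x ^ 2)⁻¹ * (z ^ 2)⁻¹ = x * z * x * (z * (x ^ 2)⁻¹) * (z ^ 2)⁻¹ := by
    rw [sq (x * z)]; group
  rw [e, ← h]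
  unfold com
  group

include h4 hc in
lemma com_sq (x z : E) : (com x z) ^ 2 = 1 := by
  rw [com_eq h4 hc]
  exact sq_mul_of hc _ _ (sq_mul_of hc _ _ (sq_sq h4 _) (sq_inv_of _ (sq_sq h4 _)))
    (sq_inv_of _ (sq_sq h4 _))

include h4 hc in
lemma sq_mul_eq (x z : E) : (x * z) ^ 2 = com x z * z ^ 2 * x ^ 2 := by
  rw [com_eq h4 hc]; simp [mul_assoc]

include h4 hc in
lemma com_mul_left (x x' z : E) : com (x * x') z = com x' z * com x z := by
  have h := hc (com x' z) (com_sq h4 hc x' z) x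
  have e : com (x * x') z = x * com x' z * z * x⁻¹ * z⁻¹ := by unfold com; group
  rw [e, ← h]
  unfold com
  group

include h4 hc in
lemma com_mul_right (x z z' : E) : com x (z * z') = com x z' * com x z := by
  have h := hc (com x z') (com_sq h4 hc x z') (x * z * x⁻¹)
  have e : com x (z * z') = x * z * x⁻¹ * com x z' * z⁻¹ := by unfold com; group
  rw [e, ← h]
  unfold com
  group

end

theorem gauss_apply {E : Type*} [Group E] [Finite E] (h4 : ∀ x : E, x ^ 4 = 1)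
    (hc : ∀ x : E, x ^ 2 = 1 → ∀ y : E, x * y = y * x)
    (hgauss : ∀ [Fintype E] (f : E → ℤ) (β : E → E → ℤ),
      (∀ x, f x = 1 ∨ f x = -1) → (∀ z x, β z x = 1 ∨ β z x = -1) →
      (∀ x z, f (x * z) = f x * f z * β z x) → (∀ z x x', β z (x * x') = β z x * β z x') →
      (∀ z z' x, β (z * z') x = β z x * β z' x) →
      ∃ R : Subgroup E, (∀ z, z ∈ R ↔ ∀ x, β z x = 1) ∧
        ((∑ x, f x) ^ 2 = 0 ∨ (∑ x, f x) ^ 2 = (Nat.card E : ℤ) * (Nat.card R : ℤ)))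
    (V₁ : Subgroup E) (hV₁ : ∀ x ∈ V₁, x ^ 2 = 1)
    (hidx : ∀ u w : E, u ^ 2 = 1 → w ^ 2 = 1 → u ∉ V₁ → w ∉ V₁ → u * w ∈ V₁) :
    ∃ R : Subgroup E, (∀ x : E, x ^ 2 = 1 → x ∈ R) ∧
      ((2 * (Nat.card {x : E // x ^ 2 ∈ V₁} : ℤ) - Nat.card E) ^ 2 = 0 ∨
       (2 * (Nat.card {x : E // x ^ 2 ∈ V₁} : ℤ) - Nat.card E) ^ 2 = (Nat.card E : ℤ) * (Nat.card R : ℤ)) := by
  classical
  haveI := Fintype.ofFinite E
  let lam : E → ℤ := fun u => if u ∈ V₁ then 1 else -1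
  have hlam : ∀ u, lam u = 1 ∨ lam u = -1 := by
    intro u
    by_cases h : u ∈ V₁
    · left; simp [lam, h]
    · right; simp [lam, h]
  have hlmul : ∀ u w : E, u ^ 2 = 1 → w ^ 2 = 1 → lam (u * w) = lam u * lam w := by
    intro u w hu hw
    by_cases h1 : u ∈ V₁ <;> by_cases h2 : w ∈ V₁
    · simp [lam, h1, h2, V₁.mul_mem h1 h2]
    · have : u * w ∉ V₁ := fun h => h2 ((V₁.mul_mem_cancel_left h1).mp h)
      simp [lam, h1, h2, this]
    · have : u * w ∉ V₁ := fun h => h1 ((V₁.mul_mem_cancel_right h2).mp h)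
      simp [lam, h1, h2, this]
    · simp [lam, h1, h2, hidx u w hu hw h1 h2]
  obtain ⟨R, hR, hG⟩ := hgauss (fun x => lam (x ^ 2)) (fun z x => lam (com x z))
    (fun x => hlam _) (fun z x => hlam _)
    (fun x z => by
      show lam ((x * z) ^ 2) = lam (x ^ 2) * lam (z ^ 2) * lam (com x z)
      rw [sq_mul_eq h4 hc, hlmul _ _ (sq_mul_of hc _ _ (com_sq h4 hc x z) (sq_sq h4 z)) (sq_sq h4 x),
        hlmul _ _ (com_sq h4 hc x z) (sq_sq h4 z)]
      ring)
    (fun z x x' => by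
      show lam (com (x * x') z) = lam (com x z) * lam (com x' z)
      rw [com_mul_left h4 hc, hlmul _ _ (com_sq h4 hc _ _) (com_sq h4 hc _ _)]
      ring)
    (fun z z' x => by
      show lam (com x (z * z')) = lam (com x z) * lam (com x z')
      rw [com_mul_right h4 hc, hlmul _ _ (com_sq h4 hc _ _) (com_sq h4 hc _ _)]
      ring)
  refine ⟨R, ?_, ?_⟩
  · intro z hz
    rw [hR]
    intro x
    have : com x z = 1 := by
      unfold com
      rw [← hc z hz x]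
      group
    show lam (com x z) = 1
    rw [this]
    simp [lam, V₁.one_mem]
  · have hsum : ∑ x : E, lam (x ^ 2) = 2 * (Nat.card {x : E // x ^ 2 ∈ V₁} : ℤ) - Nat.card E := by
      have h1 : ∀ x : E, lam (x ^ 2) = 2 * (if x ^ 2 ∈ V₁ then (1 : ℤ) else 0) - 1 := by
        intro x
        by_cases h : x ^ 2 ∈ V₁ <;> simp [lam, h]
      rw [Finset.sum_congr rfl (fun x _ => h1 x), Finset.sum_sub_distrib, ← Finset.mul_sum,
        Finset.sum_boole, Nat.card_eq_fintype_card, Nat.card_eq_fintype_card, Fintype.card_subtype]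
      simp
    rw [← hsum]
    exact hG

end Cfsg.Agent.Lib.Helper34.TI
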