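import Mathlib

set_option autoImplicit false

/-! S3117 farm: pieces N1 (num_v4, num_v2), N2 (num_prime, num_three, num_small): arithmetic. -/

namespace Cfsg.Agent.Lib.Helper34.TI

lemma odd_prime_dvd (m c r : ℕ) (hr : r.Prime) (hr2 : r ≠ 2) (hcm : c < m)
    (hdiv : 2 ^ m ≡ 2 ^ c [MOD r]) : r ∣ 2 ^ (m - c) - 1 := by
  have hdvd : r ∣ 2 ^ m - 2 ^ c :=
    (Nat.modEq_iff_dvd' (Nat.pow_le_pow_right (by norm_num) hcm.le)).mp hdiv.symm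
  obtain ⟨d, rfl⟩ : ∃ d, m = c + d := ⟨m - c, by omega⟩
  have hfac : 2 ^ (c + d) - 2 ^ c = 2 ^ c * (2 ^ d - 1) := by rw [pow_add, Nat.mul_sub, mul_one]
  rw [hfac] at hdvd
  rw [Nat.add_sub_cancel_left]
  rcases (Nat.Prime.dvd_mul hr).mp hdvd with h | h
  · exact absurd ((Nat.prime_dvd_prime_iff_eq hr Nat.prime_two).mp (hr.dvd_of_dvd_pow h)) hr2
  · exact h

theorem num_prime (m c r s₁ s₂ s₃ t₁ t₂ t₃ : ℕ) (hr : r.Prime) (hr2 : r ≠ 2) (hc : 2 ≤ c) (hcm : c < m)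
    (hm : m ≤ 6) (hs : s₁ + s₂ + s₃ + 4 = 2 ^ m) (ht : t₁ + t₂ + t₃ + 4 = 2 ^ c)
    (hdiv : 2 ^ m ≡ 2 ^ c [MOD r]) (e1 : s₁ ≡ t₁ [MOD r]) (e2 : s₂ ≡ t₂ [MOD r]) (e3 : s₃ ≡ t₃ [MOD r])
    (l6 : m = 6 → ∀ s ∈ [s₁, s₂, s₃], s ∈ [12, 20, 28, 36, 44, 60])
    (l5 : m = 5 → ∀ s ∈ [s₁, s₂, s₃], s ∈ [4, 12, 20, 28]) :
    r = 3 ∨ (r = 5 ∧ m = 6 ∧ s₁ = 20 ∧ s₂ = 20 ∧ s₃ = 20) := by
  have hr' := odd_prime_dvd m c r hr hr2 hcm hdiv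
  unfold Nat.ModEq at e1 e2 e3
  simp only [List.mem_cons, List.not_mem_nil, or_false, forall_eq_or_imp, forall_eq] at l6 l5
  obtain ⟨d, rfl⟩ : ∃ d, m = c + d := ⟨m - c, by omega⟩
  rw [Nat.add_sub_cancel_left] at hr'
  have hd1 : 1 ≤ d := by omega
  have hd4 : d ≤ 4 := by omega
  interval_cases d
  · exfalso
    simp at hr'
    exact hr.one_lt.ne' hr'
  · left
    exact (Nat.prime_dvd_prime_iff_eq hr Nat.prime_three).mp (by simpa using hr')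
  · exfalso
    have h7 : r = 7 := (Nat.prime_dvd_prime_iff_eq hr (by norm_num)).mp (by simpa using hr')
    subst h7
    have hc3 : c ≤ 3 := by omega
    interval_cases c
    · have L := l5 rfl
      norm_num at hs ht
      omega
    · have L := l6 rfl
      norm_num at hs ht
      omega
  · have h15 : r ∣ 3 * 5 := by simpa using hr'
    rcases (Nat.Prime.dvd_mul hr).mp h15 with h | h
    · left
      exact (Nat.prime_dvd_prime_iff_eq hr Nat.prime_three).mp h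
    · right
      have h5 : r = 5 := (Nat.prime_dvd_prime_iff_eq hr (by norm_num)).mp h
      subst h5
      have hc2 : c = 2 := by omega
      subst hc2
      have L := l6 rfl
      norm_num at hs ht
      omega

theorem num_three (c t₁ t₂ t₃ : ℕ) (hc : c < 6) (ht : t₁ + t₂ + t₃ + 4 = 2 ^ c)
    (hdiv : 64 ≡ 2 ^ c [MOD 3]) (e1 : 20 ≡ t₁ [MOD 3]) (e2 : 20 ≡ t₂ [MOD 3]) (e3 : 20 ≡ t₃ [MOD 3])
    (d1 : 4 ∣ t₁) (d2 : 4 ∣ t₂) (d3 : 4 ∣ t₃) : False := by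
  unfold Nat.ModEq at hdiv e1 e2 e3
  interval_cases c <;> norm_num at ht hdiv <;> omega

theorem num_small (m c r : ℕ) (hr : r.Prime) (hr2 : r ≠ 2) (hc : 1 ≤ c) (hcm : c < m) (hm : m ≤ 3)
    (hdiv : 2 ^ m ≡ 2 ^ c [MOD r]) : r = 3 := by
  have hr' := odd_prime_dvd m c r hr hr2 hcm hdiv
  obtain ⟨d, rfl⟩ : ∃ d, m = c + d := ⟨m - c, by omega⟩
  rw [Nat.add_sub_cancel_left] at hr'
  have hd1 : 1 ≤ d := by omega
  have hd4 : d ≤ 2 := by omega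
  interval_cases d
  · exfalso
    simp at hr'
    exact hr.one_lt.ne' hr'
  · exact (Nat.prime_dvd_prime_iff_eq hr Nat.prime_three).mp (by simpa using hr')

/-- a square equal to `2 ^ e`, `e ≥ 9`, is the square of a multiple of 32. -/
lemma dvd_of_sq_eq (G : ℤ) (e : ℕ) (he : 9 ≤ e) (h : G ^ 2 = 0 ∨ G ^ 2 = 2 ^ e) : (32 : ℤ) ∣ G := by
  rcases h with h | h
  · have : G = 0 := by simpa using h
    rw [this]; exact dvd_zero _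
  · have h16 : (16 : ℤ) ∣ G := by
      have : (16 : ℤ) ^ 2 ∣ G ^ 2 := by
        rw [h]
        exact ⟨2 ^ (e - 8), by rw [show (16 : ℤ) ^ 2 = 2 ^ 8 by norm_num, ← pow_add]; congr 1; omega⟩
      exact (Int.pow_dvd_pow_iff (by norm_num)).mp this
    obtain ⟨k, rfl⟩ := h16
    have hk : k ^ 2 = 2 ^ (e - 8) := by
      have : (16 : ℤ) ^ 2 * k ^ 2 = 16 ^ 2 * 2 ^ (e - 8) := by
        rw [← mul_pow, h, show (16 : ℤ) ^ 2 = 2 ^ 8 by norm_num, ← pow_add]; congr 1; omega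
      exact mul_left_cancel₀ (by norm_num) this
    have hk2 : (2 : ℤ) ∣ k := by
      have : (2 : ℤ) ∣ k ^ 2 := by
        rw [hk]; exact dvd_pow_self 2 (by omega)
      exact Int.prime_two.dvd_of_dvd_pow this
    obtain ⟨j, rfl⟩ := hk2
    exact ⟨j, by ring⟩

lemma list6 (s r : ℕ) (hr : 2 ≤ r ∧ r ≤ 6)
    (g : (2 * ((4 + s : ℕ) : ℤ) - 2 ^ 6) ^ 2 = 0 ∨ (2 * ((4 + s : ℕ) : ℤ) - 2 ^ 6) ^ 2 = 2 ^ 6 * 2 ^ r) :
    s = 12 ∨ s = 20 ∨ s = 28 ∨ s = 36 ∨ s = 44 ∨ s = 60 := by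
  obtain ⟨h1, h2⟩ := hr
  push_cast at g
  have hb : (s : ℤ) ≤ 60 := by
    rcases g with g | g
    · nlinarith
    · have : (2 : ℤ) ^ 6 * 2 ^ r ≤ 2 ^ 6 * 2 ^ 6 :=
        mul_le_mul_of_nonneg_left (pow_le_pow_right₀ (by norm_num) h2) (by norm_num)
      nlinarith
  have hb' : s ≤ 60 := by exact_mod_cast hb
  interval_cases r <;> interval_cases s <;> simp_all

lemma list5 (s r : ℕ) (hr : 2 ≤ r ∧ r ≤ 5)
    (g : (2 * ((4 + s : ℕ) : ℤ) - 2 ^ 5) ^ 2 = 0 ∨ (2 * ((4 + s : ℕ) : ℤ) - 2 ^ 5) ^ 2 = 2 ^ 5 * 2 ^ r) :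
    s = 4 ∨ s = 12 ∨ s = 20 ∨ s = 28 := by
  obtain ⟨h1, h2⟩ := hr
  push_cast at g
  have hb : (s : ℤ) ≤ 28 := by
    rcases g with g | g
    · nlinarith
    · have : (2 : ℤ) ^ 5 * 2 ^ r ≤ 2 ^ 5 * 2 ^ 5 :=
        mul_le_mul_of_nonneg_left (pow_le_pow_right₀ (by norm_num) h2) (by norm_num)
      nlinarith
  have hb' : s ≤ 28 := by exact_mod_cast hb
  interval_cases r <;> interval_cases s <;> simp_all

theorem num_v4 (m s₁ s₂ s₃ r₁ r₂ r₃ : ℕ) (hs : s₁ + s₂ + s₃ + 4 = 2 ^ m)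
    (h1 : 2 ≤ r₁ ∧ r₁ ≤ m) (h2 : 2 ≤ r₂ ∧ r₂ ≤ m) (h3 : 2 ≤ r₃ ∧ r₃ ≤ m)
    (g1 : (2 * ((4 + s₁ : ℕ) : ℤ) - 2 ^ m) ^ 2 = 0 ∨ (2 * ((4 + s₁ : ℕ) : ℤ) - 2 ^ m) ^ 2 = 2 ^ m * 2 ^ r₁)
    (g2 : (2 * ((4 + s₂ : ℕ) : ℤ) - 2 ^ m) ^ 2 = 0 ∨ (2 * ((4 + s₂ : ℕ) : ℤ) - 2 ^ m) ^ 2 = 2 ^ m * 2 ^ r₂)
    (g3 : (2 * ((4 + s₃ : ℕ) : ℤ) - 2 ^ m) ^ 2 = 0 ∨ (2 * ((4 + s₃ : ℕ) : ℤ) - 2 ^ m) ^ 2 = 2 ^ m * 2 ^ r₃) :
    m ≤ 6 ∧
    (m = 6 → ∀ s ∈ [s₁, s₂, s₃], s ∈ [12, 20, 28, 36, 44, 60]) ∧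
    (m = 5 → ∀ s ∈ [s₁, s₂, s₃], s ∈ [4, 12, 20, 28]) := by
  refine ⟨?_, ?_, ?_⟩
  · by_contra hm
    have hm7 : 7 ≤ m := by omega
    have d1 := dvd_of_sq_eq _ (m + r₁) (by omega) (by rw [pow_add]; exact g1)
    have d2 := dvd_of_sq_eq _ (m + r₂) (by omega) (by rw [pow_add]; exact g2)
    have d3 := dvd_of_sq_eq _ (m + r₃) (by omega) (by rw [pow_add]; exact g3)
    have dm : (32 : ℤ) ∣ 2 ^ m := ⟨2 ^ (m - 5), by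
      rw [show (32 : ℤ) = 2 ^ 5 by norm_num, ← pow_add]; congr 1; omega⟩
    have hs' : (s₁ : ℤ) + s₂ + s₃ + 4 = 2 ^ m := by exact_mod_cast hs
    have hsum : (2 * ((4 + s₁ : ℕ) : ℤ) - 2 ^ m) + (2 * ((4 + s₂ : ℕ) : ℤ) - 2 ^ m) +
        (2 * ((4 + s₃ : ℕ) : ℤ) - 2 ^ m) + 2 ^ m = 16 := by
      push_cast
      linarith
    have : (32 : ℤ) ∣ 16 := by
      rw [← hsum]
      exact dvd_add (dvd_add (dvd_add d1 d2) d3) dm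
    norm_num at this
  · rintro rfl
    simp only [List.mem_cons, List.not_mem_nil, or_false, forall_eq_or_imp, forall_eq]
    exact ⟨list6 s₁ r₁ h1 g1, list6 s₂ r₂ h2 g2, list6 s₃ r₃ h3 g3⟩
  · rintro rfl
    simp only [List.mem_cons, List.not_mem_nil, or_false, forall_eq_or_imp, forall_eq]
    exact ⟨list5 s₁ r₁ h1 g1, list5 s₂ r₂ h2 g2, list5 s₃ r₃ h3 g3⟩

theorem num_v2 (m r : ℕ) (h1 : 1 ≤ r ∧ r ≤ m)
    (g : (2 * (2 : ℤ) - 2 ^ m) ^ 2 = 0 ∨ (2 * (2 : ℤ) - 2 ^ m) ^ 2 = 2 ^ m * 2 ^ r) : m ≤ 3 := by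
  by_contra hm
  have hm4 : 4 ≤ m := by omega
  obtain ⟨k, rfl⟩ : ∃ k, m = k + 4 := ⟨m - 4, by omega⟩
  -- 2*2 - 2^(k+4) = 4 * (1 - 4 * 2^k)
  have e : (2 * (2 : ℤ) - 2 ^ (k + 4)) = 4 * (1 - 4 * 2 ^ k) := by rw [pow_add]; ring
  rw [e] at g
  have hpos : (1 : ℤ) ≤ 2 ^ k := one_le_pow₀ (by norm_num)
  rcases g with g | g
  · have : (4 * (1 - 4 * (2 : ℤ) ^ k)) = 0 := by simpa using g
    nlinarith
  · -- 16 * odd^2 = 2^(k+4+r), so odd^2 = 2^(k+r), k + r ≥ 1: parity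
    have h2 : (1 - 4 * (2 : ℤ) ^ k) ^ 2 = 2 ^ (k + r) := by
      have : (16 : ℤ) * (1 - 4 * 2 ^ k) ^ 2 = 16 * 2 ^ (k + r) := by
        have e2 : (2 : ℤ) ^ (k + 4) * 2 ^ r = 16 * 2 ^ (k + r) := by
          rw [pow_add, pow_add]; ring
        rw [← e2, ← g]; ring
      exact mul_left_cancel₀ (by norm_num) this
    have hev : (2 : ℤ) ∣ (1 - 4 * (2 : ℤ) ^ k) ^ 2 := by
      rw [h2]; exact dvd_pow_self 2 (by omega)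
    have := Int.prime_two.dvd_of_dvd_pow hev
    omega

end Cfsg.Agent.Lib.Helper34.TI
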