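import Mathlib
import Cfsg.Agent.Lib.Helper34.TI.Defs

set_option autoImplicit false

/-! S3117 farm: pieces A (Few.sub, Few.four), H (v_cases), Q (eq_two_pow_mul_pow), C (solvable_of_char),
K (card_modEq_fixed). -/

namespace Cfsg.Agent.Lib.Helper34.TI

theorem Few.sub {E : Type*} [Group E] [Finite E] (h : Few E) (H : Subgroup E) : Few H := by
  unfold Few at h ⊢
  refine le_trans ?_ h
  exact Nat.card_le_card_of_injective
    (fun x : {x : H // orderOf x = 2} => (⟨(x.1 : E), by rw [Subgroup.orderOf_coe]; exact x.2⟩ :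
      {x : E // orderOf x = 2}))
    (fun a b hab => by
      have := congrArg (fun y : {x : E // orderOf x = 2} => (y : E)) hab
      exact Subtype.ext (Subtype.ext this))

theorem Few.four {E : Type*} [Group E] [Finite E] (h : Few E) (a b c d : E)
    (ha : orderOf a = 2) (hb : orderOf b = 2) (hc : orderOf c = 2) (hd : orderOf d = 2)
    (hab : a ≠ b) (hac : a ≠ c) (had : a ≠ d) (hbc : b ≠ c) (hbd : b ≠ d) (hcd : c ≠ d) : False := by
  unfold Few at h
  let f : Fin 4 → {x : E // orderOf x = 2} := ![⟨a, ha⟩, ⟨b, hb⟩, ⟨c, hc⟩, ⟨d, hd⟩]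
  have hf : Function.Injective f := by
    intro i j hij
    have hij' : (f i : E) = (f j : E) := congrArg Subtype.val hij
    fin_cases i <;> fin_cases j <;> simp_all [f]
  have := Nat.card_le_card_of_injective f hf
  simp at this
  omega

theorem v_cases {E : Type*} [Group E] (h4 : ∀ x : E, x ^ 4 = 1)
    (hc : ∀ x : E, x ^ 2 = 1 → ∀ y : E, x * y = y * x)
    (hfour : ∀ a b c d : E, a ^ 2 = 1 → b ^ 2 = 1 → c ^ 2 = 1 → d ^ 2 = 1 → a ≠ 1 → b ≠ 1 → c ≠ 1 → d ≠ 1 →
      a ≠ b → a ≠ c → a ≠ d → b ≠ c → b ≠ d → c ≠ d → False) :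
    (∀ x : E, x = 1) ∨ (∃ z : E, z ≠ 1 ∧ z ^ 2 = 1 ∧ ∀ x : E, x ^ 2 = 1 → x = 1 ∨ x = z) ∨
      ∃ v₁ v₂ v₃ : E, V4 E v₁ v₂ v₃ := by
  by_cases h0 : ∀ x : E, x ^ 2 = 1 → x = 1
  · left
    intro x
    apply h0
    apply h0
    rw [← pow_mul]
    exact h4 x
  right
  push Not at h0
  obtain ⟨z, hz, hz1⟩ := h0
  by_cases h1 : ∀ x : E, x ^ 2 = 1 → x = 1 ∨ x = z
  · left
    exact ⟨z, hz1, hz, h1⟩
  right
  push Not at h1
  obtain ⟨a, ha, ha1, haz⟩ := h1
  have hza : (z * a) ^ 2 = 1 := by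
    rw [sq, mul_assoc, ← mul_assoc a z a, ← hc z hz a, mul_assoc, ← sq a, ha, mul_one, ← sq, hz]
  have n1 : z * a ≠ 1 := by
    intro h
    apply haz
    have : z * a = z * z := by rw [h, ← sq, hz]
    exact mul_left_cancel this
  have n2 : z ≠ z * a := by
    intro h
    apply ha1
    exact (mul_eq_left.mp h.symm)
  have n3 : a ≠ z * a := by
    intro h
    apply hz1
    exact (mul_eq_right.mp h.symm)
  refine ⟨z, a, z * a, hz1, ha1, n1, fun h => haz h.symm, n2, n3, hz, ha, hza, ?_⟩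
  intro x hx
  by_contra hcon
  push Not at hcon
  obtain ⟨c1, c2, c3, c4⟩ := hcon
  exact hfour z a (z * a) x hz ha hza hx hz1 ha1 n1 c1 (fun h => haz h.symm) n2 (fun h => c2 h.symm)
    n3 (fun h => c3 h.symm) (fun h => c4 h.symm)

theorem eq_two_pow_mul_pow (n q : ℕ) (hn : n ≠ 0) (hq : q.Prime) (hq2 : q ≠ 2)
    (h : ∀ r : ℕ, r.Prime → r ∣ n → r = 2 ∨ r = q) : ∃ a b : ℕ, n = 2 ^ a * q ^ b := by
  refine ⟨n.factorization 2, n.factorization q, ?_⟩
  conv_lhs => rw [← Nat.factorization_prod_pow_eq_self hn]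
  have hsub : n.factorization.support ⊆ {2, q} := by
    intro r hr
    rw [Nat.support_factorization, Nat.mem_primeFactors] at hr
    rcases h r hr.1 hr.2.1 with rfl | rfl <;> simp
  rw [Finsupp.prod_of_support_subset _ hsub _ (fun _ _ => pow_zero _),
    Finset.prod_pair (fun h => hq2 h.symm)]

theorem solvable_of_char {X : Type*} [Group X] [Finite X] (Y : Subgroup X) [Y.Characteristic]
    (hker : ∀ φ : MulAut X, (∀ y ∈ Y, φ y = y) → ∃ k : ℕ, φ ^ (2 ^ k) = 1)
    (hY : Group.IsSolvable (MulAut Y)) : Group.IsSolvable (MulAut X) := by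
  have hP : IsPGroup 2 (MulAut.characteristic Y).ker := by
    rintro ⟨φ, hφ⟩
    rw [MonoidHom.mem_ker] at hφ
    obtain ⟨k, hk⟩ := hker φ (fun y hy => by
      have := congrArg (fun ψ : MulAut Y => ((ψ ⟨y, hy⟩ : Y) : X)) hφ
      simpa using this)
    exact ⟨k, Subtype.ext hk⟩
  haveI : Fact (Nat.Prime 2) := ⟨Nat.prime_two⟩
  haveI : Group.IsNilpotent (MulAut.characteristic Y).ker := hP.isNilpotent
  haveI : Group.IsSolvable (MulAut.characteristic Y).ker := inferInstance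
  exact solvable_of_ker_le_range (MulAut.characteristic Y).ker.subtype (MulAut.characteristic Y)
    (by simp)

theorem card_modEq_fixed {E : Type*} [Finite E] (φ : Equiv.Perm E) (r : ℕ) (hr : r.Prime) (hφ : φ ^ r = 1)
    (P : E → Prop) (hP : ∀ x, P x → P (φ x)) :
    Nat.card {x : E // P x} ≡ Nat.card {x : E // P x ∧ φ x = x} [MOD r] := by
  haveI := Fact.mk hr
  have hPk : ∀ (k : ℕ) x, P x → P ((φ ^ k) x) := by
    intro k
    induction k with
    | zero => intro x hx; simpa using hx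
    | succ k ih => intro x hx; rw [pow_succ', Equiv.Perm.mul_apply]; exact hP _ (ih x hx)
  have hPg : ∀ g ∈ Subgroup.zpowers φ, ∀ x, P x → P (g x) := by
    intro g hg x hx
    have hfin : IsOfFinOrder φ := isOfFinOrder_iff_pow_eq_one.mpr ⟨r, hr.pos, hφ⟩
    rw [← hfin.mem_powers_iff_mem_zpowers] at hg
    obtain ⟨k, rfl⟩ := hg
    exact hPk k x hx
  let act : MulAction (Subgroup.zpowers φ) {x : E // P x} :=
    { smul := fun g x => ⟨(g : Equiv.Perm E) x.1, hPg g.1 g.2 x.1 x.2⟩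
      one_smul := fun x => Subtype.ext rfl
      mul_smul := fun g h x => Subtype.ext rfl }
  have hpg : IsPGroup r (Subgroup.zpowers φ) := by
    rintro ⟨g, hg⟩
    refine ⟨1, Subtype.ext ?_⟩
    obtain ⟨k, rfl⟩ := Subgroup.mem_zpowers_iff.mp hg
    show (φ ^ k) ^ r ^ 1 = 1
    rw [pow_one, ← zpow_natCast, ← zpow_mul, mul_comm, zpow_mul, zpow_natCast, hφ, one_zpow]
  have h := hpg.card_modEq_card_fixedPoints {x : E // P x}
  have e : Nat.card (MulAction.fixedPoints (Subgroup.zpowers φ) {x : E // P x}) =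
      Nat.card {x : E // P x ∧ φ x = x} := by
    apply Nat.card_congr
    refine
      { toFun := fun x => ⟨x.1.1, x.1.2, ?_⟩
        invFun := fun x => ⟨⟨x.1, x.2.1⟩, ?_⟩
        left_inv := fun x => rfl
        right_inv := fun x => rfl }
    · have := x.2 ⟨φ, Subgroup.mem_zpowers φ⟩
      exact congrArg Subtype.val this
    · rintro ⟨g, hg⟩
      obtain ⟨k, rfl⟩ := Subgroup.mem_zpowers_iff.mp hg
      apply Subtype.ext
      show (φ ^ k) x.1 = x.1
      exact Equiv.Perm.zpow_apply_eq_self_of_apply_eq_self x.2.2 k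
  rwa [e] at h

end Cfsg.Agent.Lib.Helper34.TI
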